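import Cfsg.Agent.Cores.Basic
import Mathlib.GroupTheory.Transfer
import Mathlib.GroupTheory.Solvable
import Mathlib.GroupTheory.SpecificGroups.Cyclic

/-!
# A self-centralising element of prime order
-/

set_option autoImplicit false
set_option linter.style.haveILetI false
set_option linter.unusedSectionVars false

open scoped commutatorElement

namespace Cfsg.Agent.SelfCent

variable {G : Type*} [Group G] [Finite G] {p : ℕ} [hp : Fact p.Prime] {x : G}

/-- The group generated by the element. -/
local notation "P" => Subgroup.zpowers x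

theorem card_zpowers_eq (hx : orderOf x = p) : Nat.card (Subgroup.zpowers x) = p := by
  rw [Nat.card_zpowers, hx]

theorem eq_one_of_mem_of_commute (hx : orderOf x = p)
    (hC : Subgroup.centralizer ({x} : Set G) = Subgroup.zpowers x) {S : Subgroup G}
    (hS : ¬ p ∣ Nat.card S) {s : G} (hs : s ∈ S) (hc : s * x = x * s) : s = 1 := by
  have h1 : s ∈ Subgroup.zpowers x := by
    rw [← hC, Subgroup.mem_centralizer_singleton_iff]; exact hc
  have h2 : orderOf s ∣ p := hx ▸ orderOf_dvd_of_mem_zpowers h1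
  rcases (Nat.dvd_prime hp.out).mp h2 with h | h
  · exact orderOf_eq_one_iff.mp h
  · exact absurd (h ▸ Subgroup.orderOf_dvd_natCard S hs) hS

theorem sq_not_dvd (hx : orderOf x = p)
    (hC : Subgroup.centralizer ({x} : Set G) = Subgroup.zpowers x) : ¬ p ^ 2 ∣ Nat.card G := by
  intro h
  obtain ⟨Q, hQc, hPQ⟩ := Sylow.exists_subgroup_card_pow_succ (n := 1) h
    (show Nat.card (Subgroup.zpowers x) = p ^ 1 by rw [pow_one, card_zpowers_eq hx])
  have hp2 : Nat.card Q = p ^ 2 := hQc
  haveI : IsMulCommutative Q := IsPGroup.isMulCommutative_of_card_eq_prime_sq hp2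
  have hle : Q ≤ Subgroup.centralizer ({x} : Set G) := fun y hy => by
    rw [Subgroup.mem_centralizer_singleton_iff]
    exact congrArg Subtype.val
      (mul_comm' (⟨y, hy⟩ : Q) ⟨x, hPQ (Subgroup.mem_zpowers x)⟩)
  rw [hC] at hle
  have := Nat.le_of_dvd hp.out.pos (card_zpowers_eq hx ▸ Subgroup.card_dvd_of_le hle)
  rw [hp2] at this
  nlinarith [hp.out.one_lt]

/-- The Sylow subgroup generated by `x`. -/
noncomputable def theSylow (hx : orderOf x = p)
    (hC : Subgroup.centralizer ({x} : Set G) = Subgroup.zpowers x) : Sylow p G :=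
  (IsPGroup.of_card (n := 1) (by rw [pow_one, card_zpowers_eq hx] :
      Nat.card (Subgroup.zpowers x) = p ^ 1)).toSylow (by
    intro h
    apply sq_not_dvd hx hC
    rw [sq, ← Subgroup.card_mul_index (Subgroup.zpowers x), card_zpowers_eq hx]
    exact mul_dvd_mul_left p h)

theorem coe_theSylow (hx : orderOf x = p)
    (hC : Subgroup.centralizer ({x} : Set G) = Subgroup.zpowers x) :
    (theSylow hx hC : Subgroup G) = Subgroup.zpowers x := rfl

theorem mem_of_dvd_card (hx : orderOf x = p)
    (hC : Subgroup.centralizer ({x} : Set G) = Subgroup.zpowers x) {S : Subgroup G} [S.Normal]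
    (h : p ∣ Nat.card S) : x ∈ S := by
  obtain ⟨y, hy⟩ := exists_prime_orderOf_dvd_card' p h
  have hyG : orderOf (y : G) = p := by rw [Subgroup.orderOf_coe]; exact hy
  obtain ⟨Q, hQ⟩ := (IsPGroup.of_card (n := 1) (by rw [pow_one, Nat.card_zpowers, hyG] :
    Nat.card (Subgroup.zpowers (y : G)) = p ^ 1)).exists_le_sylow
  obtain ⟨g, hg⟩ := MulAction.exists_smul_eq G Q (theSylow hx hC)
  have hQc : Nat.card Q = p := by
    rw [Sylow.card_eq_multiplicity, ← Sylow.card_eq_multiplicity (theSylow hx hC)]
    exact card_zpowers_eq hx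
  have hQeq : Subgroup.zpowers (y : G) = Q :=
    Subgroup.eq_of_le_of_card_ge hQ (by rw [hQc, Nat.card_zpowers, hyG])
  have hmem : x ∈ (theSylow hx hC : Subgroup G) := Subgroup.mem_zpowers x
  rw [← hg, Sylow.coe_subgroup_smul, ← hQeq] at hmem
  obtain ⟨z, hz, hzx⟩ : ∃ z, z ∈ Subgroup.zpowers (y : G) ∧ z = (MulAut.conj g)⁻¹ • x :=
    ⟨_, Subgroup.mem_pointwise_smul_iff_inv_smul_mem.mp hmem, rfl⟩
  have hzS : z ∈ S := (Subgroup.zpowers_le.mpr y.2) hz
  rw [hzx] at hzS
  have := Subgroup.Normal.conj_mem inferInstance _ hzS g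
  simpa [MulAut.smul_def, mul_assoc] using this

theorem mem_normalizer_iff_zpowers {g : G} :
    g ∈ Subgroup.normalizer ((P : Subgroup G) : Set G) ↔ g * x * g⁻¹ ∈ Subgroup.zpowers x := by
  constructor
  · intro h
    exact ((Subgroup.mem_normalizer_iff).mp h x).mp (Subgroup.mem_zpowers x)
  · intro h
    rw [Subgroup.mem_normalizer_iff_map_conj_eq, MonoidHom.map_zpowers]
    refine Subgroup.eq_of_le_of_card_ge (Subgroup.zpowers_le.mpr h) (le_of_eq ?_)
    rw [Nat.card_zpowers, Nat.card_zpowers]
    exact (MulEquiv.orderOf_eq (MulAut.conj g) x).symm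

theorem index_mul_card_normalizer :
    (Subgroup.normalizer ((P : Subgroup G) : Set G)).index *
      Nat.card (Subgroup.normalizer ((P : Subgroup G) : Set G)) = Nat.card G := by
  rw [mul_comm]; exact Subgroup.card_mul_index _

theorem card_subgroups_of_card (hx : orderOf x = p)
    (hC : Subgroup.centralizer ({x} : Set G) = Subgroup.zpowers x) :
    Nat.card {H : Subgroup G // Nat.card H = p} =
      (Subgroup.normalizer ((P : Subgroup G) : Set G)).index := by
  have h1 : Nat.card (Sylow p G) = (Subgroup.normalizer ((P : Subgroup G) : Set G)).index := by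
    rw [(theSylow hx hC).card_eq_index_normalizer]
    rfl
  rw [← h1]
  have hfac : p ^ (Nat.card G).factorization p = p := by
    rw [← Sylow.card_eq_multiplicity (theSylow hx hC)]; exact card_zpowers_eq hx
  refine Nat.card_congr
    { toFun := fun H => Sylow.ofCard H.1 (by rw [hfac]; exact H.2)
      invFun := fun Q => ⟨Q, by rw [Sylow.card_eq_multiplicity, hfac]⟩
      left_inv := fun H => rfl
      right_inv := fun Q => Sylow.ext rfl }

/-- Commutators of the normaliser of `P` lie in `P`. -/
theorem commutatorElement_mem_zpowers (hC : Subgroup.centralizer ({x} : Set G) = Subgroup.zpowers x)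
    {a b : G} (ha : a ∈ Subgroup.normalizer ((P : Subgroup G) : Set G))
    (hb : b ∈ Subgroup.normalizer ((P : Subgroup G) : Set G)) : ⁅a, b⁆ ∈ Subgroup.zpowers x := by
  rw [← hC, Subgroup.mem_centralizer_singleton_iff]
  obtain ⟨i, hi⟩ := Subgroup.mem_zpowers_iff.mp (mem_normalizer_iff_zpowers.mp (inv_mem ha))
  obtain ⟨j, hj⟩ := Subgroup.mem_zpowers_iff.mp (mem_normalizer_iff_zpowers.mp (inv_mem hb))
  have hij : (a⁻¹ * b⁻¹) * x * (a⁻¹ * b⁻¹)⁻¹ = (b⁻¹ * a⁻¹) * x * (b⁻¹ * a⁻¹)⁻¹ := by
    have h1 : (a⁻¹ * b⁻¹) * x * (a⁻¹ * b⁻¹)⁻¹ = a⁻¹ * (b⁻¹ * x * b⁻¹⁻¹) * a⁻¹⁻¹ := by group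
    have h2 : (b⁻¹ * a⁻¹) * x * (b⁻¹ * a⁻¹)⁻¹ = b⁻¹ * (a⁻¹ * x * a⁻¹⁻¹) * b⁻¹⁻¹ := by group
    have e : ∀ (g : G) (k : ℤ), g * x ^ k * g⁻¹ = (g * x * g⁻¹) ^ k := fun g k => by
      have := map_zpow (MulAut.conj g) x k
      simpa using this
    rw [h1, h2, ← hj, ← hi, e, e, ← hi, ← hj, ← zpow_mul, ← zpow_mul, mul_comm]
  calc ⁅a, b⁆ * x = (b⁻¹ * a⁻¹)⁻¹ * ((a⁻¹ * b⁻¹) * x * (a⁻¹ * b⁻¹)⁻¹) * (a⁻¹ * b⁻¹) := by
        rw [commutatorElement_def]; group
    _ = x * ⁅a, b⁆ := by rw [hij, commutatorElement_def]; group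

/-- A normal subgroup of order divisible by `p` contains the derived subgroup. -/
theorem commutator_le_of_dvd (hx : orderOf x = p)
    (hC : Subgroup.centralizer ({x} : Set G) = Subgroup.zpowers x) (S : Subgroup G) [S.Normal]
    (h : p ∣ Nat.card S) : commutator G ≤ S := by
  have hxS : Subgroup.zpowers x ≤ S := Subgroup.zpowers_le.mpr (mem_of_dvd_card hx hC h)
  have hsup : S ⊔ Subgroup.normalizer ((P : Subgroup G) : Set G) = ⊤ := by
    rw [sup_comm, ← coe_theSylow hx hC]
    exact Sylow.normalizer_sup_eq_top' (theSylow hx hC) (by rw [coe_theSylow]; exact hxS)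
  rw [← QuotientGroup.ker_mk' S, ← Subgroup.map_eq_bot_iff]
  rw [eq_bot_iff, commutator_def, Subgroup.map_commutator]
  have htop : (⊤ : Subgroup G).map (QuotientGroup.mk' S) =
      (Subgroup.normalizer ((P : Subgroup G) : Set G)).map (QuotientGroup.mk' S) := by
    rw [← hsup, Subgroup.map_sup, QuotientGroup.map_mk'_self, bot_sup_eq]
  rw [htop, ← Subgroup.map_commutator, Subgroup.map_le_iff_le_comap]
  refine (Subgroup.commutator_le).mpr fun a ha b hb => ?_
  show QuotientGroup.mk' S (⁅a, b⁆) ∈ (⊥ : Subgroup (G ⧸ S))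
  rw [Subgroup.mem_bot, QuotientGroup.mk'_apply, QuotientGroup.eq_one_iff]
  exact hxS (commutatorElement_mem_zpowers hC ha hb)

/-- A normal subgroup of order prime to `p`: divisibility, congruence, and the quotient. -/
theorem normal_coprime (hx : orderOf x = p)
    (hC : Subgroup.centralizer ({x} : Set G) = Subgroup.zpowers x) (S : Subgroup G) [S.Normal]
    (hS : ¬ p ∣ Nat.card S) :
    Nat.card S ∣ (Subgroup.normalizer ((P : Subgroup G) : Set G)).index ∧
      Nat.card S % p = 1 ∧ orderOf (QuotientGroup.mk x : G ⧸ S) = p ∧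
      Subgroup.centralizer ({(QuotientGroup.mk x : G ⧸ S)} : Set (G ⧸ S)) =
        Subgroup.zpowers (QuotientGroup.mk x : G ⧸ S) ∧
      S ⊓ Subgroup.normalizer ((P : Subgroup G) : Set G) = ⊥ := by
  set N := Subgroup.normalizer ((P : Subgroup G) : Set G) with hN
  have hdisj : S ⊓ N = ⊥ := by
    rw [eq_bot_iff]
    rintro s ⟨hs, hsN⟩
    have h1 : s * x * s⁻¹ * x⁻¹ ∈ S := by
      rw [mul_assoc, mul_assoc]
      exact mul_mem hs (by rw [← mul_assoc]; exact Subgroup.Normal.conj_mem inferInstance _ (inv_mem hs) x)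
    have h2 : s * x * s⁻¹ * x⁻¹ ∈ Subgroup.zpowers x :=
      mul_mem (mem_normalizer_iff_zpowers.mp hsN) (inv_mem (Subgroup.mem_zpowers x))
    have h4 : s * x * s⁻¹ * x⁻¹ = 1 := eq_one_of_mem_of_commute hx hC hS h1 (by
      rw [← Subgroup.mem_centralizer_singleton_iff, hC]; exact h2)
    have h3 : s * x = x * s := by
      rwa [mul_inv_eq_one, mul_inv_eq_iff_eq_mul] at h4
    exact Subgroup.mem_bot.mpr (eq_one_of_mem_of_commute hx hC hS hs h3)
  have hdvd : Nat.card S ∣ N.index := by
    have h1 : Nat.card S * Nat.card N = Nat.card (S ⊔ N : Subgroup G) := by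
      have h2 : Nat.card (S ⊔ N : Subgroup G) = Nat.card S * S.relIndex N := by
        rw [← Subgroup.card_mul_index (S.subgroupOf (S ⊔ N)),
          Nat.card_congr (Subgroup.subgroupOfEquivOfLe (le_sup_left : S ≤ S ⊔ N)).toEquiv]
        show Nat.card S * S.relIndex (S ⊔ N) = _
        rw [sup_comm, Subgroup.relIndex_sup_right]
      have h3 : S.relIndex N = Nat.card N := by
        rw [← Subgroup.inf_relIndex_right, hdisj, Subgroup.relIndex_bot_left]
      rw [h2, h3]
    have h2 := Subgroup.card_subgroup_dvd_card (S ⊔ N : Subgroup G)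
    rw [← h1, ← Subgroup.card_mul_index N, mul_comm (Nat.card N)] at h2
    exact Nat.dvd_of_mul_dvd_mul_right Nat.card_pos h2
  have hmod : Nat.card S % p = 1 := by
    letI : MulAction (Subgroup.zpowers x) S :=
      { smul := fun u s => ⟨(u : G) * s * (u : G)⁻¹, Subgroup.Normal.conj_mem inferInstance _ s.2 _⟩
        one_smul := fun s => Subtype.ext (by
          change ((1 : Subgroup.zpowers x) : G) * s * ((1 : Subgroup.zpowers x) : G)⁻¹ = s
          simp)
        mul_smul := fun u w s => Subtype.ext (by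
          change ((u * w : Subgroup.zpowers x) : G) * s * ((u * w : Subgroup.zpowers x) : G)⁻¹ =
            (u : G) * ((w : G) * s * (w : G)⁻¹) * (u : G)⁻¹
          simp [mul_assoc]) }
    have hP : IsPGroup p (Subgroup.zpowers x) :=
      IsPGroup.of_card (n := 1) (by rw [pow_one, card_zpowers_eq hx])
    have h1 := hP.card_modEq_card_fixedPoints S
    have h2 : Nat.card (MulAction.fixedPoints (Subgroup.zpowers x) S) = 1 := by
      rw [Nat.card_eq_one_iff_unique]
      refine ⟨⟨fun a b => ?_⟩, ⟨⟨1, fun u => Subtype.ext ?_⟩⟩⟩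
      · have key : ∀ c : MulAction.fixedPoints (Subgroup.zpowers x) S, ((c : S) : G) = 1 := by
          intro c
          have hc : x * ((c : S) : G) * x⁻¹ = ((c : S) : G) :=
            congrArg Subtype.val (c.2 ⟨x, Subgroup.mem_zpowers x⟩)
          exact eq_one_of_mem_of_commute hx hC hS (c : S).2 (mul_inv_eq_iff_eq_mul.mp hc).symm
        exact Subtype.ext (Subtype.ext ((key a).trans (key b).symm))
      · change (u : G) * ((1 : S) : G) * (u : G)⁻¹ = ((1 : S) : G)
        simp
    rw [h2] at h1
    exact Eq.trans h1 (Nat.mod_eq_of_lt hp.out.one_lt)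
  have hne : (QuotientGroup.mk x : G ⧸ S) ≠ 1 := fun h => by
    rw [QuotientGroup.eq_one_iff] at h
    exact hS (hx ▸ Subgroup.orderOf_dvd_natCard S h)
  have hord : orderOf (QuotientGroup.mk x : G ⧸ S) = p := by
    have h := orderOf_map_dvd (QuotientGroup.mk' S) x
    rw [hx, Nat.dvd_prime hp.out] at h
    rcases h with h | h
    · exact absurd (orderOf_eq_one_iff.mp h) hne
    · exact h
  refine ⟨hdvd, hmod, hord, le_antisymm ?_ ?_, hdisj⟩
  · rintro q hq
    obtain ⟨g, rfl⟩ := QuotientGroup.mk_surjective q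
    rw [Subgroup.mem_centralizer_singleton_iff, ← QuotientGroup.mk_mul, ← QuotientGroup.mk_mul,
      QuotientGroup.eq] at hq
    -- the element `g` normalises `S ⊔ P`; move it into the normaliser
    set K := S ⊔ Subgroup.zpowers x with hKdef
    have hxK : x ∈ K := Subgroup.mem_sup_right (Subgroup.mem_zpowers x)
    have hgx : g⁻¹ * x * g ∈ K := by
      have e : g⁻¹ * x * g = x * ((g * x)⁻¹ * (x * g)) := by group
      rw [e]
      exact mul_mem hxK (Subgroup.mem_sup_left hq)
    have hg'x : g * x * g⁻¹ ∈ K := by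
      have e : g * x * g⁻¹ = x * (g * ((g * x)⁻¹ * (x * g)) * g⁻¹)⁻¹ := by group
      rw [e]
      exact mul_mem hxK (inv_mem (Subgroup.mem_sup_left (Subgroup.Normal.conj_mem inferInstance _ hq g)))
    have hg : g ∈ Subgroup.normalizer (K : Set G) := by
      rw [Subgroup.mem_normalizer_iff]
      intro y
      have hle : ∀ c : G, c * x * c⁻¹ ∈ K → ∀ z ∈ K, c * z * c⁻¹ ∈ K := by
        intro c hc z hz
        have : K ≤ K.comap (MulAut.conj c).toMonoidHom := by
          rw [hKdef, sup_le_iff]
          refine ⟨fun s hs => Subgroup.mem_sup_left (Subgroup.Normal.conj_mem inferInstance s hs c), ?_⟩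
          rw [Subgroup.zpowers_le]
          exact hc
        exact this hz
      refine ⟨hle g hg'x y, fun h => ?_⟩
      have := hle g⁻¹ (by simpa using hgx) _ h
      simpa [mul_assoc] using this
    haveI : (S.subgroupOf (Subgroup.normalizer (K : Set G))).Normal := inferInstance
    haveI hKn : (K.subgroupOf (Subgroup.normalizer (K : Set G))).Normal := inferInstance
    obtain ⟨k, hk, n, hn, hkn⟩ : ∃ k ∈ K, ∃ n ∈ Subgroup.normalizer ((P : Subgroup G) : Set G),
        g = k * n := by
      let R := Subgroup.normalizer (K : Set G)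
      let Q : Sylow p R := (theSylow hx hC).subtype (by
        rw [coe_theSylow]; exact (Subgroup.zpowers_le.mpr hxK).trans Subgroup.le_normalizer)
      have hQK : (Q : Subgroup R) ≤ K.subgroupOf R := fun z hz =>
        (Subgroup.zpowers_le.mpr hxK) hz
      have htop := Sylow.normalizer_sup_eq_top' Q hQK
      have hgmem : (⟨g, hg⟩ : R) ∈ K.subgroupOf R ⊔ Subgroup.normalizer ((Q : Subgroup R) : Set R) := by
        rw [sup_comm]
        exact htop.ge (Subgroup.mem_top _)
      rw [← SetLike.mem_coe, Subgroup.normal_mul] at hgmem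
      obtain ⟨k, hk, n, hn, hkn⟩ := Set.mem_mul.mp hgmem
      refine ⟨k, hk, n, ?_, (congrArg Subtype.val hkn).symm⟩
      rw [mem_normalizer_iff_zpowers]
      have := ((Subgroup.mem_normalizer_iff).mp hn ⟨x, (Subgroup.le_normalizer) hxK⟩).mp
        (Subgroup.mem_zpowers x)
      exact this
    rw [← SetLike.mem_coe, hKdef, Subgroup.normal_mul] at hk
    obtain ⟨s, hs, u, hu, rfl⟩ := Set.mem_mul.mp hk
    have hn' : u * n ∈ Subgroup.normalizer ((P : Subgroup G) : Set G) :=
      mul_mem (Subgroup.le_normalizer hu) hn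
    have hmk : (QuotientGroup.mk g : G ⧸ S) = QuotientGroup.mk (u * n) := by
      rw [hkn, QuotientGroup.eq]
      have e : (s * u * n)⁻¹ * (u * n) = (u * n)⁻¹ * s⁻¹ * (u * n)⁻¹⁻¹ := by group
      rw [e]
      exact Subgroup.Normal.conj_mem inferInstance _ (inv_mem hs) _
    rw [hmk]
    set m := u * n
    have hcm : m * x = x * m := by
      have h1 : m * x * m⁻¹ * x⁻¹ ∈ Subgroup.zpowers x :=
        mul_mem (mem_normalizer_iff_zpowers.mp hn') (inv_mem (Subgroup.mem_zpowers x))
      have h2 : m * x * m⁻¹ * x⁻¹ ∈ S := by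
        rw [← QuotientGroup.eq_one_iff]
        have : (QuotientGroup.mk g : G ⧸ S) * QuotientGroup.mk x =
            QuotientGroup.mk x * QuotientGroup.mk g := by
          rw [← QuotientGroup.mk_mul, ← QuotientGroup.mk_mul, QuotientGroup.eq]; exact hq
        rw [hmk] at this
        rw [QuotientGroup.mk_mul, QuotientGroup.mk_mul, QuotientGroup.mk_mul, QuotientGroup.mk_inv,
          QuotientGroup.mk_inv, this]
        group
      have h3 : m * x * m⁻¹ * x⁻¹ = 1 := eq_one_of_mem_of_commute hx hC hS h2 (by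
        rw [← Subgroup.mem_centralizer_singleton_iff, hC]; exact h1)
      rwa [mul_inv_eq_one, mul_inv_eq_iff_eq_mul] at h3
    have : m ∈ Subgroup.zpowers x := by
      rw [← hC, Subgroup.mem_centralizer_singleton_iff]; exact hcm
    obtain ⟨i, hi⟩ := Subgroup.mem_zpowers_iff.mp this
    exact Subgroup.mem_zpowers_iff.mpr ⟨i, by rw [← hi]; rfl⟩
  · rw [Subgroup.zpowers_le, Subgroup.mem_centralizer_singleton_iff]

theorem mem_P_of_mem_centralizer (hC : Subgroup.centralizer ({x} : Set G) = Subgroup.zpowers x)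
    {g : G} (h : g * x = x * g) : g ∈ Subgroup.zpowers x := by
  rw [← hC, Subgroup.mem_centralizer_singleton_iff]; exact h

theorem isConj_one_left_iff_orderOf {a b : G} (h : IsConj a b) : orderOf a = orderOf b := by
  obtain ⟨c, rfl⟩ := isConj_iff.mp h
  exact (MulEquiv.orderOf_eq (MulAut.conj c) a).symm

/-- The number of classes of elements of order `p` times `[N(P) : P]` is `p - 1`. -/
theorem classes_mul_relIndex (hx : orderOf x = p)
    (hC : Subgroup.centralizer ({x} : Set G) = Subgroup.zpowers x) :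
    Nat.card {C : ConjClasses G // ∃ g ∈ C.carrier, orderOf g = p} *
      (Subgroup.zpowers x).relIndex (Subgroup.normalizer ((P : Subgroup G) : Set G)) = p - 1 := by
  classical
  haveI := Fintype.ofFinite G
  haveI : Finite (ConjClasses G) := Finite.of_surjective _ ConjClasses.mk_surjective
  haveI := Fintype.ofFinite (ConjClasses G)
  set N := Subgroup.normalizer ((P : Subgroup G) : Set G) with hN
  set e := (Subgroup.zpowers x).relIndex N
  set T := {C : ConjClasses G // ∃ g ∈ C.carrier, orderOf g = p}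
  -- every class meets `P` in exactly `e` generators
  let Ps := Finset.univ.filter fun y : G => y ∈ Subgroup.zpowers x ∧ y ≠ 1
  have hPs : Ps.card = p - 1 := by
    have : Ps = (Finset.univ.filter fun y : G => y ∈ Subgroup.zpowers x).erase 1 := by
      ext y; simp [Ps, and_comm]
    rw [this, Finset.card_erase_of_mem (by simp)]
    congr 1
    rw [← Fintype.card_subtype, ← Nat.card_eq_fintype_card]
    exact card_zpowers_eq hx
  have hord : ∀ y ∈ Ps, orderOf y = p := by
    intro y hy
    simp only [Ps, Finset.mem_filter, Finset.mem_univ, true_and] at hy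
    rcases (Nat.dvd_prime hp.out).mp (hx ▸ orderOf_dvd_of_mem_zpowers hy.1) with h | h
    · exact absurd (orderOf_eq_one_iff.mp h) hy.2
    · exact h
  have hfib : ∀ y ∈ Ps, (Ps.filter fun z => ConjClasses.mk z = ConjClasses.mk y).card = e := by
    intro y hy
    have hy' := hy
    simp only [Ps, Finset.mem_filter, Finset.mem_univ, true_and] at hy'
    have hzy : Subgroup.zpowers y = Subgroup.zpowers x :=
      Subgroup.eq_of_le_of_card_ge (Subgroup.zpowers_le.mpr hy'.1)
        (le_of_eq (by rw [Nat.card_zpowers, Nat.card_zpowers, hx, hord y hy]))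
    haveI : ((Subgroup.zpowers x).subgroupOf N).Normal := inferInstance
    -- conjugators form cosets of `P`
    let f : N ⧸ (Subgroup.zpowers x).subgroupOf N → G := Quotient.lift
      (fun n : N => (n : G) * y * (n : G)⁻¹) (by
        intro a b hab
        have hab' : ((a⁻¹ * b : N) : G) ∈ Subgroup.zpowers x :=
          Subgroup.mem_subgroupOf.mp (QuotientGroup.leftRel_apply.mp hab)
        obtain ⟨i, hi⟩ := Subgroup.mem_zpowers_iff.mp hab'
        obtain ⟨j, rfl⟩ := Subgroup.mem_zpowers_iff.mp hy'.1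
        have : (b : G) = (a : G) * x ^ i := by rw [hi]; simp
        show (a : G) * x ^ j * (a : G)⁻¹ = (b : G) * x ^ j * (b : G)⁻¹
        rw [this]; group)
    have hfinj : Function.Injective f := by
      rintro q₁ q₂
      obtain ⟨a, rfl⟩ := QuotientGroup.mk_surjective q₁
      obtain ⟨b, rfl⟩ := QuotientGroup.mk_surjective q₂
      intro h
      change (a : G) * y * (a : G)⁻¹ = (b : G) * y * (b : G)⁻¹ at h
      rw [QuotientGroup.eq, Subgroup.mem_subgroupOf]
      have hc : ((a⁻¹ * b : N) : G) * y = y * ((a⁻¹ * b : N) : G) := by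
        push_cast
        calc (a : G)⁻¹ * b * y = (a : G)⁻¹ * ((b : G) * y * (b : G)⁻¹) * b := by group
          _ = y * ((a : G)⁻¹ * b) := by rw [← h]; group
      refine mem_P_of_mem_centralizer hC ?_
      have h2 : Commute ((a⁻¹ * b : N) : G) y := hc
      obtain ⟨k, hk⟩ := Subgroup.mem_zpowers_iff.mp (hzy ▸ Subgroup.mem_zpowers x)
      rw [← hk]
      exact (h2.zpow_right k).eq
    haveI := Fintype.ofFinite (N ⧸ (Subgroup.zpowers x).subgroupOf N)
    have himg : (Ps.filter fun z => ConjClasses.mk z = ConjClasses.mk y) =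
        Finset.univ.image f := by
      ext z
      simp only [Finset.mem_filter, Finset.mem_image, Finset.mem_univ, true_and]
      constructor
      · rintro ⟨hz, hzc⟩
        obtain ⟨g, hg⟩ := isConj_iff.mp (ConjClasses.mk_eq_mk_iff_isConj.mp hzc.symm)
        have hzP : z ∈ Subgroup.zpowers x := by
          simp only [Ps, Finset.mem_filter, Finset.mem_univ, true_and] at hz; exact hz.1
        have hgN : g ∈ N := by
          rw [hN, mem_normalizer_iff_zpowers]
          obtain ⟨k, hk⟩ := Subgroup.mem_zpowers_iff.mp (hzy ▸ Subgroup.mem_zpowers x)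
          rw [← hk, show g * y ^ k * g⁻¹ = (g * y * g⁻¹) ^ k by simp]
          rw [hg, hk]
          exact Subgroup.zpow_mem _ hzP k
        exact ⟨QuotientGroup.mk ⟨g, hgN⟩, hg⟩
      · rintro ⟨q, rfl⟩
        obtain ⟨a, rfl⟩ := QuotientGroup.mk_surjective q
        change (a : G) * y * (a : G)⁻¹ ∈ Ps ∧
          ConjClasses.mk ((a : G) * y * (a : G)⁻¹) = ConjClasses.mk y
        refine ⟨?_, (ConjClasses.mk_eq_mk_iff_isConj.mpr (isConj_iff.mpr ⟨(a : G), rfl⟩)).symm⟩
        simp only [Ps, Finset.mem_filter, Finset.mem_univ, true_and]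
        exact ⟨((Subgroup.mem_normalizer_iff).mp a.2 y).mp hy'.1,
          fun h => hy'.2 (conj_eq_one_iff.mp h)⟩
    rw [himg, Finset.card_image_of_injective _ hfinj, Finset.card_univ, ← Nat.card_eq_fintype_card]
    rfl
  have himage : Ps.image ConjClasses.mk = Finset.univ.filter
      fun C : ConjClasses G => ∃ g ∈ C.carrier, orderOf g = p := by
    ext C
    simp only [Finset.mem_image, Finset.mem_filter, Finset.mem_univ, true_and]
    constructor
    · rintro ⟨y, hy, rfl⟩
      exact ⟨y, ConjClasses.mem_carrier_mk, hord y hy⟩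
    · rintro ⟨g, hg, hgo⟩
      obtain ⟨Q, hQ⟩ := (IsPGroup.of_card (n := 1) (by rw [pow_one, Nat.card_zpowers, hgo] :
        Nat.card (Subgroup.zpowers g) = p ^ 1)).exists_le_sylow
      obtain ⟨c, hc⟩ := MulAction.exists_smul_eq G Q (theSylow hx hC)
      refine ⟨c * g * c⁻¹, ?_, ?_⟩
      · simp only [Ps, Finset.mem_filter, Finset.mem_univ, true_and]
        refine ⟨?_, fun h => hp.out.one_lt.ne' (hgo ▸ orderOf_eq_one_iff.mpr (conj_eq_one_iff.mp h))⟩
        have hm : c * g * c⁻¹ ∈ ((c • Q : Sylow p G) : Subgroup G) := by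
          rw [Sylow.coe_subgroup_smul]
          exact Subgroup.smul_mem_pointwise_smul g (MulAut.conj c) (Q : Subgroup G)
            (hQ (Subgroup.mem_zpowers g))
        rw [hc] at hm
        exact hm
      · rw [← ConjClasses.mem_carrier_iff_mk_eq.mp hg, ConjClasses.mk_eq_mk_iff_isConj]
        exact (isConj_iff.mpr ⟨c, rfl⟩).symm
  have hTcard : Nat.card T = (Ps.image ConjClasses.mk).card := by
    rw [himage, Nat.card_eq_fintype_card, Fintype.card_subtype]
  rw [hTcard, ← hPs, Finset.card_eq_sum_card_image ConjClasses.mk Ps,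
    Finset.sum_congr rfl (fun C hC' => ?_), Finset.sum_const, smul_eq_mul]
  obtain ⟨y, hy, rfl⟩ := Finset.mem_image.mp hC'
  exact hfib y hy

theorem card_normalizer_eq (hx : orderOf x = p) :
    Nat.card (Subgroup.normalizer ((P : Subgroup G) : Set G)) =
      p * (Subgroup.zpowers x).relIndex (Subgroup.normalizer ((P : Subgroup G) : Set G)) := by
  rw [← Subgroup.card_mul_index ((Subgroup.zpowers x).subgroupOf
    (Subgroup.normalizer ((P : Subgroup G) : Set G))),
    Nat.card_congr (Subgroup.subgroupOfEquivOfLe Subgroup.le_normalizer).toEquiv, card_zpowers_eq hx]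
  rfl

/-- With a nontrivial automiser, `p` divides the order of the derived subgroup. -/
theorem dvd_card_commutator (hx : orderOf x = p)
    (hC : Subgroup.centralizer ({x} : Set G) = Subgroup.zpowers x)
    (he : (Subgroup.zpowers x).relIndex (Subgroup.normalizer ((P : Subgroup G) : Set G)) ≠ 1) :
    p ∣ Nat.card (commutator G) := by
  set N := Subgroup.normalizer ((P : Subgroup G) : Set G)
  obtain ⟨n, hnN, hnP⟩ : ∃ n ∈ N, n ∉ Subgroup.zpowers x := by
    by_contra h
    push Not at h
    exact he (Subgroup.relIndex_eq_one.mpr h)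
  have h1 : ⁅n, x⁆ ∈ Subgroup.zpowers x := by
    rw [commutatorElement_def]
    exact mul_mem (mem_normalizer_iff_zpowers.mp hnN) (inv_mem (Subgroup.mem_zpowers x))
  have h2 : ⁅n, x⁆ ≠ 1 := fun h => hnP (mem_P_of_mem_centralizer hC
    (commutatorElement_eq_one_iff_mul_comm.mp h))
  have h3 : orderOf ⁅n, x⁆ = p := by
    rcases (Nat.dvd_prime hp.out).mp (hx ▸ orderOf_dvd_of_mem_zpowers h1) with h | h
    · exact absurd (orderOf_eq_one_iff.mp h) h2
    · exact h
  have hmem : ⁅n, x⁆ ∈ commutator G :=
    Subgroup.commutator_mem_commutator (Subgroup.mem_top n) (Subgroup.mem_top x)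
  exact h3 ▸ Subgroup.orderOf_dvd_natCard _ hmem

/-- With trivial automiser, the derived subgroup is the `p`-prime core, of index `p`. -/
theorem commutator_of_relIndex_one (hx : orderOf x = p)
    (hC : Subgroup.centralizer ({x} : Set G) = Subgroup.zpowers x)
    (he : (Subgroup.zpowers x).relIndex (Subgroup.normalizer ((P : Subgroup G) : Set G)) = 1) :
    ¬ p ∣ Nat.card (commutator G) ∧ (commutator G).index = p := by
  have hN : Subgroup.normalizer ((P : Subgroup G) : Set G) ≤
      Subgroup.centralizer ((theSylow hx hC : Subgroup G) : Set G) := by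
    intro n hn
    rw [coe_theSylow, Subgroup.mem_centralizer_iff]
    intro u hu
    obtain ⟨i, rfl⟩ := Subgroup.mem_zpowers_iff.mp hu
    obtain ⟨j, rfl⟩ := Subgroup.mem_zpowers_iff.mp (Subgroup.relIndex_eq_one.mp he hn)
    rw [← zpow_add, ← zpow_add, add_comm]
  haveI := (theSylow hx hC).isPGroup'
  have hcompl := MonoidHom.ker_transferSylow_isComplement' (theSylow hx hC) hN
  set K := (MonoidHom.transferSylow (theSylow hx hC) hN).ker
  have hKp : ¬ p ∣ Nat.card K :=
    (MonoidHom.not_dvd_card_ker_transferSylow (theSylow hx hC) hN)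
  have hKidx : K.index = p := by
    rw [hcompl.symm.index_eq_card]
    exact card_zpowers_eq hx
  have hle : commutator G ≤ K := by
    haveI : IsMulCommutative (theSylow hx hC : Subgroup G) := by
      rw [coe_theSylow]; infer_instance
    rw [commutator_eq_closure, Subgroup.closure_le]
    rintro _ ⟨a, b, rfl⟩
    rw [SetLike.mem_coe, MonoidHom.mem_ker, map_commutatorElement, commutatorElement_eq_one_iff_mul_comm]
    exact mul_comm' _ _
  have hG'p : ¬ p ∣ Nat.card (commutator G) := fun h => hKp (h.trans (Subgroup.card_dvd_of_le hle))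
  refine ⟨hG'p, ?_⟩
  obtain ⟨-, -, ho, hc, -⟩ := normal_coprime hx hC (commutator G) hG'p
  have htop : Subgroup.zpowers (QuotientGroup.mk x : G ⧸ commutator G) = ⊤ := by
    rw [← hc, eq_top_iff]
    intro q _
    rw [Subgroup.mem_centralizer_singleton_iff]
    exact Std.Commutative.comm (op := fun a b : Abelianization G => a * b) q (QuotientGroup.mk x)
  rw [Subgroup.index, ← Subgroup.card_top, ← htop, Nat.card_zpowers, ho]

theorem pPrimeCore_le_commutator (hx : orderOf x = p)
    (hC : Subgroup.centralizer ({x} : Set G) = Subgroup.zpowers x) :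
    Cfsg.pPrimeCore p G ≤ commutator G := by
  set S := Cfsg.pPrimeCore p G
  have hS : ¬ p ∣ Nat.card S := Cores.not_dvd_card_pPrimeCore
  let f : S → S := fun s => ⟨(s : G) * x * (s : G)⁻¹ * x⁻¹, by
    rw [mul_assoc, mul_assoc]
    exact mul_mem s.2 (by rw [← mul_assoc]; exact Subgroup.Normal.conj_mem inferInstance _ (inv_mem s.2) x)⟩
  have hinj : Function.Injective f := fun a b h => by
    have h1 : (a : G) * x * (a : G)⁻¹ * x⁻¹ = (b : G) * x * (b : G)⁻¹ * x⁻¹ :=
      congrArg Subtype.val h
    have h1' := mul_right_cancel h1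
    have h2 : ((b : G)⁻¹ * a) * x = x * ((b : G)⁻¹ * a) := by
      calc ((b : G)⁻¹ * a) * x = (b : G)⁻¹ * ((a : G) * x * (a : G)⁻¹) * a := by group
        _ = x * ((b : G)⁻¹ * a) := by rw [h1']; group
    have h3 := eq_one_of_mem_of_commute hx hC hS (mul_mem (inv_mem b.2) a.2) h2
    exact Subtype.ext (inv_mul_eq_one.mp h3).symm
  intro s hs
  obtain ⟨a, ha⟩ := Finite.surjective_of_injective hinj ⟨s, hs⟩
  have : s = ⁅(a : G), x⁆ := by rw [commutatorElement_def]; exact (congrArg Subtype.val ha).symm
  rw [this]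
  exact Subgroup.commutator_mem_commutator (Subgroup.mem_top _) (Subgroup.mem_top _)

/-- Either the second derived subgroup is the first, or the latter is the core extended by `P`. -/
theorem commutator_cases (hx : orderOf x = p)
    (hC : Subgroup.centralizer ({x} : Set G) = Subgroup.zpowers x)
    (hd : p ∣ Nat.card (commutator G)) :
    derivedSeries G 2 = derivedSeries G 1 ∨
      (¬ p ∣ Nat.card (derivedSeries G 2) ∧
        Nat.card (commutator G) = p * Nat.card (derivedSeries G 2) ∧
        derivedSeries G 2 = Cfsg.pPrimeCore p G) := by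
  set D := derivedSeries G 2 with hD
  haveI : D.Normal := inferInstance
  have hle : D ≤ commutator G := by
    rw [← derivedSeries_one]; exact derivedSeries_antitone G (by norm_num)
  by_cases hp' : p ∣ Nat.card D
  · left
    exact le_antisymm (derivedSeries_antitone G (by norm_num))
      (by rw [derivedSeries_one]; exact commutator_le_of_dvd hx hC D hp')
  right
  refine ⟨hp', ?_⟩
  obtain ⟨hdiv, -, ho, hc, -⟩ := normal_coprime hx hC D hp'
  have hxG' : x ∈ commutator G := mem_of_dvd_card hx hC hd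
  have hmap : (commutator G).map (QuotientGroup.mk' D) = Subgroup.zpowers (QuotientGroup.mk x : G ⧸ D) := by
    refine le_antisymm ?_ (Subgroup.zpowers_le.mpr ⟨x, hxG', rfl⟩)
    rintro _ ⟨g, hg, rfl⟩
    rw [← hc, Subgroup.mem_centralizer_singleton_iff]
    show (QuotientGroup.mk g : G ⧸ D) * QuotientGroup.mk x = QuotientGroup.mk x * QuotientGroup.mk g
    rw [← QuotientGroup.mk_mul, ← QuotientGroup.mk_mul, QuotientGroup.eq]
    have : ⁅x⁻¹, g⁻¹⁆ ∈ D := by
      rw [hD, derivedSeries_succ, derivedSeries_one]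
      exact Subgroup.commutator_mem_commutator (inv_mem hxG') (inv_mem hg)
    rw [commutatorElement_def] at this
    simpa [mul_assoc] using this
  have hcard : Nat.card (commutator G) = p * Nat.card D := by
    have h1 := Subgroup.card_mul_index ((D).subgroupOf (commutator G))
    rw [Nat.card_congr (Subgroup.subgroupOfEquivOfLe hle).toEquiv] at h1
    have h2 : (D.subgroupOf (commutator G)).index =
        Nat.card ((commutator G).map (QuotientGroup.mk' D)) := by
      have := Subgroup.relIndex_map_map (QuotientGroup.mk' D) (⊥ : Subgroup G) (commutator G)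
      simp only [Subgroup.map_bot, QuotientGroup.ker_mk', bot_sup_eq, Subgroup.relIndex_bot_left,
        sup_of_le_left hle] at this
      exact this.symm
    rw [h2, hmap, Nat.card_zpowers, ho] at h1
    rw [← h1, mul_comm]
  refine ⟨hcard, le_antisymm (Cores.le_pPrimeCore_of_not_dvd inferInstance hp') ?_⟩
  have hK := pPrimeCore_le_commutator (p := p) hx hC
  intro s hs
  have hsD : (QuotientGroup.mk s : G ⧸ D) ∈ Subgroup.zpowers (QuotientGroup.mk x : G ⧸ D) :=
    hmap ▸ ⟨s, hK hs, rfl⟩
  rw [← QuotientGroup.eq_one_iff]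
  refine orderOf_eq_one_iff.mp (Nat.Coprime.eq_one_of_dvd ?_
    (ho ▸ orderOf_dvd_of_mem_zpowers hsD))
  exact Nat.Coprime.of_dvd_left ((orderOf_map_dvd (QuotientGroup.mk' D) s))
    (Cores.orderOf_coprime_of_mem_pPrimeCore hs)

end Cfsg.Agent.SelfCent
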